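/-
Solvable signalizer functor theorem: cores, Fitting facts, members, maximal `t`-subgroups, `A × B`.
-/
import Cfsg.Agent.Lib.SSFT.Ctx
import Cfsg.Agent.Lib.Perm.KWParts
import Cfsg.Agent.Lib.Solvable.Fitting

set_option autoImplicit false
set_option linter.unusedSectionVars false

namespace Cfsg.Agent.Lib.SSFT

open Subgroup Cfsg Cfsg.Agent.Lib.Coprime.Action Cfsg.Agent.Lib.Signal.Basic
  Cfsg.Agent.Lib.Signal.Transitivity Cfsg.Agent.Lib.Coprime.SchurZassenhaus
  Cfsg.Agent.Lib.LocalStruct.PCoreOf Cfsg.Agent.Lib.Core.Basic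

universe u

variable {G : Type u} [Group G] [Finite G]

/-! ### Cores of subgroups -/

section Core

variable {t : ℕ} {K : Subgroup G}

theorem map_conj_eq_of_normalized {g : G} (hg : ∀ k ∈ K, g * k * g⁻¹ ∈ K) :
    K.map (MulAut.conj g).toMonoidHom = K := by
  apply Subgroup.eq_of_le_of_card_ge
  · rintro _ ⟨x, hx, rfl⟩
    exact hg x hx
  · have e : K ≃* K.map (MulAut.conj g).toMonoidHom :=
      K.equivMapOfInjective _ (MulAut.conj g).injective
    rw [Nat.card_congr e.toEquiv]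

/-- An element normalizing `K` normalizes its cores. -/
theorem conj_mem_core {g : G} (hg : ∀ k ∈ K, g * k * g⁻¹ ∈ K) :
    ∀ x ∈ pCoreOf t K, g * x * g⁻¹ ∈ pCoreOf t K := by
  intro x hx
  have h := pCoreOf_conj (p := t) g K
  rw [map_conj_eq_of_normalized hg] at h
  rw [← h]
  exact ⟨x, hx, rfl⟩

theorem conj_mem_core_of_mem {g : G} (hg : g ∈ K) : ∀ x ∈ pCoreOf t K, g * x * g⁻¹ ∈ pCoreOf t K :=
  conj_mem_core fun _ hk => K.mul_mem (K.mul_mem hg hk) (K.inv_mem hg)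

/-- The Fitting subgroup of `K` inside the ambient group. -/
def fitOf (K : Subgroup G) : Subgroup G := (fittingSubgroup K).map K.subtype

theorem fitOf_eq : fitOf K = ⨆ s : Nat.Primes, pCoreOf (s : ℕ) K := by
  rw [fitOf, fittingSubgroup_eq_iSup_pCore, Subgroup.map_iSup]
  rfl

theorem core_le_fitOf {s : ℕ} (hs : s.Prime) : pCoreOf s K ≤ fitOf K := by
  rw [fitOf_eq]
  exact le_iSup (fun s : Nat.Primes => pCoreOf (s : ℕ) K) ⟨s, hs⟩

theorem fitOf_le : fitOf K ≤ K := Subgroup.map_subtype_le _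

theorem fitOf_nilpotent : Group.IsNilpotent (fitOf K) := by
  have h : Group.IsNilpotent (fittingSubgroup K) := fittingSubgroup_isNilpotent
  have e : fittingSubgroup K ≃* fitOf K :=
    (fittingSubgroup K).equivMapOfInjective _ K.subtype_injective
  exact Cfsg.Agent.Lib.Core.Basic.isNilpotent_of_injective e.symm.toMonoidHom e.symm.injective

/-- `g` centralizing every core of `K` centralizes `F(K)`. -/
theorem commute_fitOf_of_core {g : G} (h : ∀ s : ℕ, s.Prime → ∀ z ∈ pCoreOf s K, g * z = z * g) :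
    ∀ z ∈ fitOf K, g * z = z * g := by
  have hle : fitOf K ≤ centralizer ({g} : Set G) := by
    rw [fitOf_eq]
    refine iSup_le fun s => ?_
    intro z hz
    rw [mem_centralizer_iff]
    intro t ht
    rw [Set.mem_singleton_iff.mp ht]
    exact h s s.2 z hz
  intro z hz
  exact mem_centralizer_iff.mp (hle hz) g rfl

/-- `C_K(F(K)) ≤ F(K)` for solvable `K`. -/
theorem mem_fitOf_of_commute (hK : Group.IsSolvable K) {y : G} (hy : y ∈ K)
    (h : ∀ z ∈ fitOf K, y * z = z * y) : y ∈ fitOf K := by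
  have h1 : (⟨y, hy⟩ : K) ∈ centralizer (fittingSubgroup K : Set K) := by
    rw [mem_centralizer_iff]
    intro z hz
    apply Subtype.ext
    exact (h z ⟨z, hz, rfl⟩).symm
  exact ⟨⟨y, hy⟩, Cfsg.Agent.Lib.Solvable.Fitting.centralizer_fittingSubgroup_le h1, rfl⟩

/-- A `t`-subgroup of `K` centralizing all cores of `K` lies in `O_t(K)`. -/
theorem le_core_of_commute [ht : Fact t.Prime] (hK : Group.IsSolvable K) {Y : Subgroup G} (hYK : Y ≤ K)
    (hYt : IsPGroup t Y) (h : ∀ s : ℕ, s.Prime → ∀ y ∈ Y, ∀ z ∈ pCoreOf s K, y * z = z * y) :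
    Y ≤ pCoreOf t K := by
  have hYF : Y ≤ fitOf K := fun y hy =>
    mem_fitOf_of_commute hK (hYK hy) (commute_fitOf_of_core fun s hs z hz => h s hs y hy z hz)
  have h1 := Cfsg.Agent.Lib.Perm.KWParts.le_pCoreOf_of_isPGroup (r := t) fitOf_nilpotent hYF hYt
  refine h1.trans ?_
  refine le_pCoreOf ?_ ?_ (isPGroup_pCoreOf _)
  · exact (pCoreOf_le _).trans fitOf_le
  · intro k hk
    apply Cfsg.Agent.Lib.LocalStruct.Comm.mem_normalizer_of_conj_mem
    refine conj_mem_core ?_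
    rintro _ ⟨f, hf, rfl⟩
    refine ⟨⟨k, hk⟩ * f * (⟨k, hk⟩ : K)⁻¹, (inferInstance : (fittingSubgroup K).Normal).conj_mem f hf _, ?_⟩
    simp

/-- An element of `K` normalizes `F(K)`. -/
theorem conj_mem_fitOf {k : G} (hk : k ∈ K) : ∀ z ∈ fitOf K, k * z * k⁻¹ ∈ fitOf K := by
  rintro _ ⟨f, hf, rfl⟩
  refine ⟨⟨k, hk⟩ * f * (⟨k, hk⟩ : K)⁻¹, (inferInstance : (fittingSubgroup K).Normal).conj_mem f hf _, ?_⟩
  simp

/-- A group of coprime operators centralizing all cores of the solvable `K` centralizes `K`. -/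
theorem commute_of_commute_core {Z : Subgroup G} (hK : Group.IsSolvable K)
    (hZK : ∀ a ∈ Z, ∀ k ∈ K, a * k * a⁻¹ ∈ K) (hcop : (Nat.card Z).Coprime (Nat.card K))
    (h : ∀ a ∈ Z, ∀ s : ℕ, s.Prime → ∀ z ∈ pCoreOf s K, a * z = z * a) :
    ∀ a ∈ Z, ∀ k ∈ K, a * k = k * a := by
  have hF : ∀ a ∈ Z, ∀ z ∈ fitOf K, a * z = z * a := fun a ha =>
    commute_fitOf_of_core (h a ha)
  have hFinv : ∀ a ∈ Z, ∀ z ∈ fitOf K, a * z * a⁻¹ ∈ fitOf K := by
    intro a ha z hz
    rw [hF a ha z hz]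
    simpa using hz
  have hkey : ∀ k ∈ K, ∀ a ∈ Z, a * k * a⁻¹ * k⁻¹ ∈ fitOf K := by
    intro k hk a ha
    have hmem : a * k * a⁻¹ * k⁻¹ ∈ K := K.mul_mem (hZK a ha k hk) (K.inv_mem hk)
    refine mem_fitOf_of_commute hK hmem fun f hf => ?_
    -- `k⁻¹ f k ∈ F`, centralized by `a`
    have h1 : k⁻¹ * f * k ∈ fitOf K := by
      simpa using conj_mem_fitOf (K.inv_mem hk) f hf
    have h2 := hF a⁻¹ (Z.inv_mem ha) _ h1
    have h3 := hF a ha f hf
    calc a * k * a⁻¹ * k⁻¹ * f = a * k * (a⁻¹ * (k⁻¹ * f * k)) * k⁻¹ := by group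
      _ = a * f * k * a⁻¹ * k⁻¹ := by rw [h2]; group
      _ = f * (a * k * a⁻¹ * k⁻¹) := by rw [h3]; group
  intro a ha k hk
  have hKF : K ≤ normalizer (fitOf K : Set G) := fun k hk =>
    Cfsg.Agent.Lib.LocalStruct.Comm.mem_normalizer_of_conj_mem (conj_mem_fitOf hk)
  have hZF : Z ≤ normalizer (fitOf K : Set G) := le_normalizer_iff.mpr hFinv
  obtain ⟨c, hc, hcN⟩ := exists_fixed_of_fixed_mod (A := Z) (K := K) (fitOf K)
    (le_normalizer_iff.mpr hZK) hcop (Or.inr hK) fitOf_le hKF hZF hk (hkey k hk)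
  have hac : a * c = c * a := mem_centralizer_iff.mp hc.2 a ha
  have haf := hF a ha _ hcN
  have e : k = c * (k⁻¹ * c)⁻¹ := by group
  rw [e]
  have haf' : a * (k⁻¹ * c)⁻¹ = (k⁻¹ * c)⁻¹ * a := by
    have := hF a ha _ (inv_mem hcN)
    exact this
  calc a * (c * (k⁻¹ * c)⁻¹) = (a * c) * (k⁻¹ * c)⁻¹ := by group
    _ = c * (a * (k⁻¹ * c)⁻¹) := by rw [hac]; group
    _ = c * (k⁻¹ * c)⁻¹ * a := by rw [haf']; group

end Core

variable {p : ℕ} [hp : Fact p.Prime] {A : Subgroup G} {θ : G → Subgroup G}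

/-- A maximal member of the family containing `C = C_θ(A)`. -/
def IsMember (p : ℕ) (A : Subgroup G) (θ : G → Subgroup G) (K : Subgroup G) : Prop :=
  K ∈ signalizerFamily p A θ ∧ CC A θ ≤ K ∧
    ∀ K' ∈ signalizerFamily p A θ, CC A θ ≤ K' → K ≤ K' → K' = K

/-- A maximal `t`-subgroup of the family. -/
def IsMaxT (p : ℕ) (A : Subgroup G) (θ : G → Subgroup G) (t : ℕ) (T : Subgroup G) : Prop :=
  T ∈ signalizerFamily p A θ ∧ IsPGroup t T ∧
    ∀ R ∈ signalizerFamily p A θ, IsPGroup t R → T ≤ R → R = T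

/-- Cores of family members are family members. -/
theorem core_mem_family {t : ℕ} {K : Subgroup G} (hK : K ∈ signalizerFamily p A θ) :
    pCoreOf t K ∈ signalizerFamily p A θ :=
  family_of_le hK (pCoreOf_le K) fun b hb => conj_mem_core (hK.2.2.1 b hb)

/-- A subgroup meeting: `r`-groups and `t`-groups meet trivially. -/
theorem eq_one_of_mem_of_isPGroup {r t : ℕ} [hr : Fact r.Prime] [ht : Fact t.Prime] (hrt : r ≠ t)
    {U V : Subgroup G} (hU : IsPGroup r U) (hV : IsPGroup t V) {x : G} (hxU : x ∈ U) (hxV : x ∈ V) :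
    x = 1 := by
  have h1 : x ∈ U ⊓ V := ⟨hxU, hxV⟩
  have h2 : U ⊓ V = ⊥ := disjoint_iff.mp (IsPGroup.disjoint_of_ne r t hrt U V hU hV)
  rw [h2, Subgroup.mem_bot] at h1
  exact h1

/-- Elements of an `r`-group and a `t`-group normalizing each other's groups commute. -/
theorem commute_of_conj_mem {r t : ℕ} [hr : Fact r.Prime] [ht : Fact t.Prime] (hrt : r ≠ t)
    {U V : Subgroup G} (hU : IsPGroup r U) (hV : IsPGroup t V) {g w : G} (hg : g ∈ U) (hw : w ∈ V)
    (h1 : g * w * g⁻¹ ∈ V) (h2 : w * g * w⁻¹ ∈ U) : g * w = w * g := by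
  have hV' : g * w * g⁻¹ * w⁻¹ ∈ V := V.mul_mem h1 (V.inv_mem hw)
  have hU' : g * w * g⁻¹ * w⁻¹ ∈ U := by
    have : g * w * g⁻¹ * w⁻¹ = g * (w * g * w⁻¹)⁻¹ := by group
    rw [this]
    exact U.mul_mem hg (U.inv_mem h2)
  have e := eq_one_of_mem_of_isPGroup hrt hU hV hU' hV'
  have e2 : g * w = g * w * g⁻¹ * w⁻¹ * (w * g) := by group
  rw [e2, e, one_mul]

/-- Different cores of a group commute. -/
theorem commute_cores {K : Subgroup G} {r t : ℕ} [hr : Fact r.Prime] [ht : Fact t.Prime] (hrt : r ≠ t)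
    {g w : G} (hg : g ∈ pCoreOf r K) (hw : w ∈ pCoreOf t K) : g * w = w * g :=
  commute_of_conj_mem hrt (isPGroup_pCoreOf K) (isPGroup_pCoreOf K) hg hw
    (conj_mem_core_of_mem (pCoreOf_le K hg) w hw) (conj_mem_core_of_mem (pCoreOf_le K hw) g hg)

/-- Order of an element of an `r`-group is prime to `t`. -/
theorem coprime_orderOf_of_mem {r t : ℕ} [hr : Fact r.Prime] [ht : Fact t.Prime] (hrt : r ≠ t)
    {U : Subgroup G} (hU : IsPGroup r U) {x : G} (hx : x ∈ U) : (orderOf x).Coprime t := by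
  obtain ⟨k, hk⟩ := (IsPGroup.iff_orderOf (p := r)).mp hU ⟨x, hx⟩
  rw [Subgroup.orderOf_mk] at hk
  rw [hk]
  exact Nat.Coprime.pow_left k ((Nat.coprime_primes hr.out ht.out).mpr hrt)

namespace IsMinCx

variable (h : IsMinCx p A θ)
include h

/-- Every `U` in the family normalized by `C` lies in a member. -/
theorem exists_member_ge {U : Subgroup G} (hU : U ∈ signalizerFamily p A θ)
    (hC : CC A θ ≤ normalizer (U : Set G)) : ∃ K, IsMember p A θ K ∧ U ≤ K := by
  have hUC : U ⊔ CC A θ ∈ signalizerFamily p A θ :=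
    Cfsg.Agent.S1280.result p A h.ea h.h2 θ h.functor U (CC A θ) hU h.CC_mem hC
  obtain ⟨K, hle, hmax⟩ := Finite.exists_le_maximal
    (p := fun K : Subgroup G => K ∈ signalizerFamily p A θ ∧ CC A θ ≤ K) (a := U ⊔ CC A θ)
    ⟨hUC, le_sup_right⟩
  refine ⟨K, ⟨hmax.prop.1, hmax.prop.2, ?_⟩, le_sup_left.trans hle⟩
  intro K' hK' hCK' hKK'
  exact le_antisymm (hmax.le_of_ge ⟨hK', hCK'⟩ hKK') hKK'

/-- Every `θ a` lies in a member. -/
theorem exists_member_ge_theta {a : G} (ha : a ∈ A) (ha1 : a ≠ 1) :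
    ∃ K, IsMember p A θ K ∧ θ a ≤ K :=
  h.exists_member_ge (h.theta_mem ha ha1) ((CC_le_theta ha ha1).trans
    (Subgroup.le_normalizer))

/-- A member `K` is the largest member of the family normalizing a nontrivial `Y` it normalizes. -/
theorem le_member_of_normalizes {K Y U : Subgroup G} (hK : IsMember p A θ K)
    (hY : Y ∈ signalizerFamily p A θ) (hne : Y ≠ ⊥) (hKY : K ≤ normalizer (Y : Set G))
    (hU : U ∈ signalizerFamily p A θ) (hUY : U ≤ normalizer (Y : Set G)) : U ≤ K := by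
  have h1 : K ≤ Nt A θ Y := h.le_Nt hK.1 hKY
  have h2 := hK.2.2 _ (h.Nt_mem hY hne) (hK.2.1.trans h1) h1
  rw [← h2]
  exact h.le_Nt hU hUY

/-- The core form of `le_member_of_normalizes`. -/
theorem le_member_of_normalizes_core {K U : Subgroup G} {t : ℕ} (hK : IsMember p A θ K)
    (hne : pCoreOf t K ≠ ⊥) (hU : U ∈ signalizerFamily p A θ)
    (hUY : U ≤ normalizer (pCoreOf t K : Set G)) : U ≤ K :=
  h.le_member_of_normalizes hK (core_mem_family hK.1) hne (le_normalizer_pCoreOf K) hU hUY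

/-- An element of `A` centralizing all cores of a family member centralizes it (B1). -/
theorem commute_of_core {K : Subgroup G} (hK : K ∈ signalizerFamily p A θ) {a : G} (ha : a ∈ A)
    (hc : ∀ s : ℕ, s.Prime → ∀ z ∈ pCoreOf s K, a * z = z * a) : ∀ k ∈ K, a * k = k * a := by
  have hZ : IsPGroup p (zpowers a) := isPGroup_zpowers_of_pow_eq_one (h.ea.2 a ha)
  have hZle : zpowers a ≤ A := zpowers_le.mpr ha
  have hcop := coprime_card_of_isPGroup_of_not_dvd hZ hK.2.1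
  have hall := commute_of_commute_core (Z := zpowers a) hK.1 (fun b hb k hk => hK.2.2.1 b (hZle hb) k hk) hcop
    (by
      rintro _ ⟨n, rfl⟩ s hs z hz
      have := hc s hs z hz
      exact (Commute.zpow_left this n).eq)
  exact hall a (mem_zpowers a)

/-- (B3): `x` centralizing all cores of the member `K` forces `K = θ x`. -/
theorem eq_theta_of_core {K : Subgroup G} (hK : IsMember p A θ K) {x : G} (hx : x ∈ A) (hx1 : x ≠ 1)
    (hc : ∀ s : ℕ, s.Prime → ∀ z ∈ pCoreOf s K, x * z = z * x) : K = θ x := by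
  have h1 : K ≤ θ x := by
    intro k hk
    refine hK.1.2.2.2 x hx hx1 ⟨hk, mem_centralizer_iff.mpr ?_⟩
    intro t ht
    rw [Set.mem_singleton_iff.mp ht]
    exact h.commute_of_core hK.1 hx hc k hk
  exact (hK.2.2 _ (h.theta_mem hx hx1) (CC_le_theta hx hx1) h1).symm

/-! ### Maximal `t`-subgroups -/

theorem exists_maxT_ge {t : ℕ} {U : Subgroup G} (hU : U ∈ signalizerFamily p A θ)
    (hUt : IsPGroup t U) : ∃ T, IsMaxT p A θ t T ∧ U ≤ T := by
  obtain ⟨Q, hUQ, hQ, hQt, hm⟩ := exists_maximal_ge hU hUt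
  exact ⟨Q, ⟨hQ, hQt, hm⟩, hUQ⟩

/-- A nontrivial `t`-subgroup of the family: `t` divides some `θ a`. -/
theorem exists_dvd_of_ne_bot {t : ℕ} [ht : Fact t.Prime] {U : Subgroup G}
    (hU : U ∈ signalizerFamily p A θ) (hUt : IsPGroup t U) (hne : U ≠ ⊥) :
    ∃ a ∈ A, a ≠ 1 ∧ t ∣ Nat.card (θ a) := by
  have hgen := iSup_inf_centralizer h.ea h.h2 hU.2.1 hU.2.2.1
  have : ∃ a ∈ A, a ≠ 1 ∧ U ⊓ centralizer {a} ≠ ⊥ := by
    by_contra hcon
    push Not at hcon
    apply hne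
    rw [← hgen]
    exact iSup₂_eq_bot.mpr fun a ha => hcon a ha.1 ha.2
  obtain ⟨a, ha, ha1, hne'⟩ := this
  refine ⟨a, ha, ha1, ?_⟩
  have hle : U ⊓ centralizer {a} ≤ θ a := hU.2.2.2 a ha ha1
  have hpg : IsPGroup t (U ⊓ centralizer {a} : Subgroup G) := hUt.to_le inf_le_left
  obtain ⟨n, hn⟩ := IsPGroup.iff_card.mp hpg
  have hn0 : n ≠ 0 := by
    rintro rfl
    rw [pow_zero] at hn
    exact hne' (Subgroup.eq_bot_of_card_eq _ hn)
  have : t ∣ Nat.card (U ⊓ centralizer {a} : Subgroup G) := by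
    rw [hn]
    exact dvd_pow_self t hn0
  exact this.trans (Subgroup.card_dvd_of_le hle)

/-- A `C`-invariant `t`-subgroup of the family lies in every maximal `t`-subgroup. -/
theorem le_maxT_of_CC_inv {t : ℕ} [ht : Fact t.Prime] {U T : Subgroup G}
    (hU : U ∈ signalizerFamily p A θ) (hUt : IsPGroup t U)
    (hC : ∀ c ∈ CC A θ, ∀ x ∈ U, c * x * c⁻¹ ∈ U) (hT : IsMaxT p A θ t T) : U ≤ T := by
  by_cases hne : U = ⊥
  · rw [hne]; exact bot_le
  obtain ⟨T₁, hT₁, hUT₁⟩ := h.exists_maxT_ge hU hUt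
  obtain ⟨c, hc, hcT⟩ := Cfsg.Agent.S1283.result p A h.ea h.h3 θ h.functor t
    (h.exists_dvd_of_ne_bot hU hUt hne) T₁ T hT₁.1 hT₁.2.1 hT₁.2.2 hT.1 hT.2.1 hT.2.2
  rw [← hcT]
  intro x hx
  refine ⟨c⁻¹ * x * c, hUT₁ ?_, ?_⟩
  · simpa using hC c⁻¹ (inv_mem hc) x hx
  · simp [mul_assoc]

/-- A `C`-invariant `t`-subgroup and any `t`-subgroup of the family lie in a common maximal one. -/
theorem exists_common_maxT {t : ℕ} [ht : Fact t.Prime] {U V : Subgroup G}
    (hU : U ∈ signalizerFamily p A θ) (hUt : IsPGroup t U)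
    (hC : ∀ c ∈ CC A θ, ∀ x ∈ U, c * x * c⁻¹ ∈ U)
    (hV : V ∈ signalizerFamily p A θ) (hVt : IsPGroup t V) :
    ∃ T, IsMaxT p A θ t T ∧ U ≤ T ∧ V ≤ T := by
  obtain ⟨T, hT, hVT⟩ := h.exists_maxT_ge hV hVt
  exact ⟨T, hT, h.le_maxT_of_CC_inv hU hUt hC hT, hVT⟩

/-- **`A × B`**: for a member `K` with `O_t(K) ≠ 1`, `r ≠ t`, and `H` in the family,
`O_r(K) ∩ H` centralizes `O_t(H)`. -/
theorem axb {K H : Subgroup G} {r t : ℕ} [hr : Fact r.Prime] [ht : Fact t.Prime] (hrt : r ≠ t)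
    (hK : IsMember p A θ K) (hH : H ∈ signalizerFamily p A θ) (hne : pCoreOf t K ≠ ⊥) :
    ∀ y ∈ pCoreOf r K ⊓ H, ∀ z ∈ pCoreOf t H, y * z = z * y := by
  intro y hy z hz
  set Q := pCoreOf t K with hQ
  set V := pCoreOf t H with hV
  have hQfam : Q ∈ signalizerFamily p A θ := core_mem_family hK.1
  have hVfam : V ∈ signalizerFamily p A θ := core_mem_family hH
  have hQt : IsPGroup t Q := isPGroup_pCoreOf K
  have hVt : IsPGroup t V := isPGroup_pCoreOf H
  have hQC : ∀ c ∈ CC A θ, ∀ x ∈ Q, c * x * c⁻¹ ∈ Q := fun c hc =>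
    conj_mem_core_of_mem (hK.2.1 hc)
  obtain ⟨T, hT, hQT, hVT⟩ := h.exists_common_maxT hQfam hQt hQC hVfam hVt
  set P := Q ⊔ V with hP
  have hPT : P ≤ T := sup_le hQT hVT
  have hPt : IsPGroup t P := hT.2.1.to_le hPT
  have hPfam : P ∈ signalizerFamily p A θ := by
    refine family_of_le hT.1 hPT ?_
    intro b hb x hx
    have hle : P ≤ P.comap (MulAut.conj b).toMonoidHom := by
      refine sup_le ?_ ?_
      · intro w hw
        exact (le_sup_left : Q ≤ P) (hQfam.2.2.1 b hb w hw)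
      · intro w hw
        exact (le_sup_right : V ≤ P) (hVfam.2.2.1 b hb w hw)
    exact hle hx
  have hyK : y ∈ K := pCoreOf_le K hy.1
  have hyr : y ∈ pCoreOf r K := hy.1
  have hyH : y ∈ H := hy.2
  have hrcore : IsPGroup r (pCoreOf r K) := isPGroup_pCoreOf K
  -- `y` normalizes `P`
  have hyP : ∀ x ∈ P, y * x * y⁻¹ ∈ P := by
    intro x hx
    have hle : P ≤ P.comap (MulAut.conj y).toMonoidHom := by
      refine sup_le ?_ ?_
      · intro w hw
        exact (le_sup_left : Q ≤ P) (conj_mem_core_of_mem hyK w hw)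
      · intro w hw
        exact (le_sup_right : V ≤ P) (conj_mem_core_of_mem hyH w hw)
    exact hle hx
  -- `C_P(O_t K)` lies in `K`, so is centralized by `y`
  have hfix : ∀ x ∈ P, (∀ w ∈ Q, w * x = x * w) → y * x = x * y := by
    intro x hx hxQ
    set W : Subgroup G := P ⊓ centralizer (Q : Set G) with hW
    have hWfam : W ∈ signalizerFamily p A θ := by
      refine family_of_le hPfam inf_le_left ?_
      rintro b hb v ⟨hv1, hv2⟩
      refine ⟨hPfam.2.2.1 b hb v hv1, mem_centralizer_iff.mpr ?_⟩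
      intro w hw
      have hw' : b⁻¹ * w * b ∈ Q := by
        simpa using hQfam.2.2.1 b⁻¹ (inv_mem hb) w hw
      have e := mem_centralizer_iff.mp hv2 _ hw'
      calc w * (b * v * b⁻¹) = b * ((b⁻¹ * w * b) * v) * b⁻¹ := by group
        _ = b * (v * (b⁻¹ * w * b)) * b⁻¹ := by rw [e]
        _ = b * v * b⁻¹ * w := by group
    have hWK : W ≤ K := by
      refine h.le_member_of_normalizes_core hK hne hWfam ?_
      intro v hv
      apply Cfsg.Agent.Lib.LocalStruct.Comm.mem_normalizer_of_conj_mem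
      intro w hw
      have e := mem_centralizer_iff.mp hv.2 w hw
      have : v * w * v⁻¹ = w := by rw [← e]; group
      rwa [this]
    have hxK : x ∈ K := hWK ⟨hx, mem_centralizer_iff.mpr hxQ⟩
    exact commute_of_conj_mem hrt hrcore hPt hyr hx (hyP x hx) (conj_mem_core_of_mem hxK y hyr)
  have hyQ : ∀ w ∈ Q, y * w = w * y := fun w hw => commute_cores hrt hyr hw
  have hyord : (orderOf y).Coprime t := coprime_orderOf_of_mem hrt hrcore hyr
  have hQP : Q ≤ P := le_sup_left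
  have hVP : V ≤ P := le_sup_right
  exact Cfsg.Agent.Lib.CharP.Basic.thompson_AB P Q hPt hQt
    (fun w hw x hx => P.mul_mem (P.mul_mem (hQP hw) hx) (P.inv_mem (hQP hw)))
    y hyP hyQ hyord (fun x hx hc => hfix x hx fun w hw => hc w hw) z (hVP hz)

end IsMinCx

end Cfsg.Agent.Lib.SSFT
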