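/-
Solvable signalizer functor theorem: lines, `J_L`, the thin subgroups `D_L(t)`, `Γ_t`.
-/
import Cfsg.Agent.Lib.SSFT.Members

set_option autoImplicit false
set_option linter.unusedSectionVars false

namespace Cfsg.Agent.Lib.SSFT

open Subgroup Cfsg Cfsg.Agent.Lib.Coprime.Action Cfsg.Agent.Lib.Signal.Basic
  Cfsg.Agent.Lib.Signal.Transitivity Cfsg.Agent.Lib.Coprime.SchurZassenhaus
  Cfsg.Agent.Lib.LocalStruct.PCoreOf Cfsg.Agent.Lib.Core.Basic Cfsg.Agent.Lib.Coprime.Generation2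

universe u

variable {G : Type u} [Group G] [Finite G] {p : ℕ} [hp : Fact p.Prime] {A : Subgroup G}
  {θ : G → Subgroup G}

/-- A line of the plane `A`: a subgroup of order `p ^ 2`. -/
def IsLine (p : ℕ) (A L : Subgroup G) : Prop := L ≤ A ∧ Nat.card L = p ^ 2

/-- `D_L(t)`: the intersection of the `O_t(θ z)`, `z` a nontrivial element of `L`. -/
noncomputable def DL (θ : G → Subgroup G) (t : ℕ) (L : Subgroup G) : Subgroup G :=
  ⨅ z : {z : G // z ∈ L ∧ z ≠ 1}, pCoreOf t (θ (z : G))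

/-- `Γ_t`: the join of the `D_L(t)`. -/
noncomputable def Gam (p : ℕ) (A : Subgroup G) (θ : G → Subgroup G) (t : ℕ) : Subgroup G :=
  ⨆ L : {L : Subgroup G // IsLine p A L}, DL θ t (L : Subgroup G)

theorem mem_DL {t : ℕ} {L : Subgroup G} {x : G} :
    x ∈ DL θ t L ↔ ∀ z ∈ L, z ≠ 1 → x ∈ pCoreOf t (θ z) := by
  rw [DL, mem_iInf]
  constructor
  · intro h z hz hz1
    exact h ⟨z, hz, hz1⟩
  · rintro h ⟨z, hz, hz1⟩
    exact h z hz hz1

theorem DL_le_core {t : ℕ} {L : Subgroup G} {z : G} (hz : z ∈ L) (hz1 : z ≠ 1) :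
    DL θ t L ≤ pCoreOf t (θ z) := fun _ hx => mem_DL.mp hx z hz hz1

theorem DL_le_Gam {t : ℕ} {L : Subgroup G} (hL : IsLine p A L) : DL θ t L ≤ Gam p A θ t :=
  le_iSup (fun L : {L : Subgroup G // IsLine p A L} => DL θ t (L : Subgroup G)) ⟨L, hL⟩

/-- Two lines of a plane meet. -/
theorem exists_meet (hA : IsElementaryAbelian p A) (hcard : Nat.card A = p ^ 3) {L L' : Subgroup G}
    (hL : IsLine p A L) (hL' : IsLine p A L') : ∃ z ∈ L, z ∈ L' ∧ z ≠ 1 := by
  by_contra hcon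
  push Not at hcon
  have hbot : L ⊓ L' = ⊥ := eq_bot_iff.mpr fun x hx => hcon x hx.1 hx.2
  have h1 : Nat.card L * Nat.card L' ≤ Nat.card A := by
    have hinj : Function.Injective (fun q : L × L' => ((q.1 : G) * (q.2 : G) : G)) := by
      rintro ⟨a, b⟩ ⟨c, d⟩ he
      simp only at he
      have h2 : (c : G)⁻¹ * a = d * (b : G)⁻¹ := by
        calc (c : G)⁻¹ * a = (c : G)⁻¹ * (a * b) * (b : G)⁻¹ := by group
          _ = (c : G)⁻¹ * (c * d) * (b : G)⁻¹ := by rw [he]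
          _ = d * (b : G)⁻¹ := by group
      have h3 : (c : G)⁻¹ * a ∈ L ⊓ L' :=
        ⟨L.mul_mem (L.inv_mem c.2) a.2, h2 ▸ L'.mul_mem d.2 (L'.inv_mem b.2)⟩
      rw [hbot, Subgroup.mem_bot] at h3
      have h4 : (a : G) = c := by
        calc (a : G) = c * ((c : G)⁻¹ * a) := by group
          _ = c := by rw [h3, mul_one]
      have h5 : (d : G) = b := by
        have : d * (b : G)⁻¹ = 1 := h2 ▸ h3
        calc (d : G) = d * (b : G)⁻¹ * b := by group
          _ = b := by rw [this, one_mul]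
      exact Prod.ext (Subtype.ext h4) (Subtype.ext h5.symm)
    have := Nat.card_le_card_of_injective
      (f := fun q : L × L' => (⟨(q.1 : G) * (q.2 : G), A.mul_mem (hL.1 q.1.2) (hL'.1 q.2.2)⟩ : A))
      (fun x y he => hinj (congrArg Subtype.val he))
    rwa [Nat.card_prod] at this
  rw [hL.2, hL'.2, hcard] at h1
  have hp2 := hp.out.two_le
  have h5 : p ^ 3 < p ^ 2 * p ^ 2 := by
    rw [← pow_add]
    exact Nat.pow_lt_pow_right (by omega) (by norm_num)
  omega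

namespace IsMinCx

variable (h : IsMinCx p A θ)
include h

theorem DL_centralizes {t : ℕ} {L : Subgroup G} (hL : L ≤ A) :
    DL θ t L ≤ centralizer (L : Set G) := by
  intro x hx
  rw [mem_centralizer_iff]
  intro z hz
  by_cases hz1 : z = 1
  · rw [hz1]; simp
  have h1 := h.functor.1.1 z (hL hz) hz1 (pCoreOf_le _ (mem_DL.mp hx z hz hz1))
  exact mem_centralizer_iff.mp h1 z rfl

theorem DL_isPGroup {t : ℕ} {L : Subgroup G} (hne : ∃ z ∈ L, z ≠ 1) : IsPGroup t (DL θ t L) := by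
  obtain ⟨z, hz, hz1⟩ := hne
  exact (isPGroup_pCoreOf (p := t) (θ z)).to_le (DL_le_core hz hz1)

theorem DL_family {t : ℕ} {L : Subgroup G} (hL : L ≤ A) (hne : ∃ z ∈ L, z ≠ 1) :
    DL θ t L ∈ signalizerFamily p A θ := by
  obtain ⟨z, hz, hz1⟩ := hne
  refine family_of_le (core_mem_family (h.theta_mem (hL hz) hz1)) (DL_le_core hz hz1) ?_
  intro b hb x hx
  exact mem_DL.mpr fun y hy hy1 =>
    conj_mem_core (h.functor.1.2.2.1 y (hL hy) hy1 b hb) x (mem_DL.mp hx y hy hy1)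

/-- `C` normalizes `D_L(t)`, and more generally anything inside all `θ z` (`z ∈ L`). -/
theorem DL_normalized_of_forall {t : ℕ} {L : Subgroup G} {g : G}
    (hg : ∀ z ∈ L, z ≠ 1 → g ∈ θ z) : ∀ x ∈ DL θ t L, g * x * g⁻¹ ∈ DL θ t L := by
  intro x hx
  exact mem_DL.mpr fun y hy hy1 =>
    conj_mem_core_of_mem (hg y hy hy1) x (mem_DL.mp hx y hy hy1)

/-- Hall-type criterion behind (D): `S1288` for `t`-subgroups. -/
theorem le_core_of_hyperplanes {t : ℕ} [ht : Fact t.Prime] {H U : Subgroup G}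
    (hH : H ∈ signalizerFamily p A θ) (hUH : U ≤ H) (hUt : IsPGroup t U)
    (hc : ∀ B : Subgroup G, B ≤ A → B.relIndex A = p →
      IsPGroup t (⁅U, H ⊓ centralizer (B : Set G)⁆ : Subgroup G)) : U ≤ pCoreOf t H := by
  set ι := {q : ℕ // q.Prime ∧ q ≠ t ∧ q ∣ Nat.card H} with hι
  set M : Subgroup G := H ⊓ ⨅ q : ι, (pPrimeCore (q : ℕ) H).map H.subtype with hM
  have hnd : ∀ {X : Subgroup G}, IsPGroup t X → ∀ q : ℕ, q.Prime → q ≠ t → ¬ q ∣ Nat.card X := by
    intro X hX q hq hqt hd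
    obtain ⟨n, hn⟩ := IsPGroup.iff_card.mp hX
    rw [hn] at hd
    exact hqt ((Nat.prime_dvd_prime_iff_eq hq ht.out).mp (hq.dvd_of_dvd_pow hd))
  have hUM : U ≤ M := by
    refine le_inf hUH (le_iInf fun q => ?_)
    haveI : Fact (q : ℕ).Prime := ⟨q.2.1⟩
    exact Cfsg.Agent.S1288.result p A H h.ea h.h2 hH.2.1 hH.1 (le_normalizer_iff.mpr hH.2.2.1)
      (q : ℕ) q.2.2.2 U hUH (hnd hUt _ q.2.1 q.2.2.1) (fun B hB hBi => hnd (hc B hB hBi) _ q.2.1 q.2.2.1)
  refine hUM.trans (le_pCoreOf inf_le_left ?_ ?_)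
  · intro g hg
    apply Cfsg.Agent.Lib.LocalStruct.Comm.mem_normalizer_of_conj_mem
    intro x hx
    have hx1 : x ∈ H := hx.1
    have hx2 : x ∈ ⨅ q : ι, (pPrimeCore (q : ℕ) H).map H.subtype := hx.2
    refine ⟨H.mul_mem (H.mul_mem hg hx1) (H.inv_mem hg), ?_⟩
    show g * x * g⁻¹ ∈ ⨅ q : ι, (pPrimeCore (q : ℕ) H).map H.subtype
    rw [mem_iInf] at hx2 ⊢
    intro q
    obtain ⟨y, hy, rfl⟩ := hx2 q
    refine ⟨⟨g, hg⟩ * y * (⟨g, hg⟩ : H)⁻¹, (pPrimeCore_normal (q : ℕ) H).conj_mem y hy _, ?_⟩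
    simp
  · rw [IsPGroup.iff_card]
    have hne : Nat.card M ≠ 0 := Nat.card_pos.ne'
    refine ⟨_, Nat.eq_prime_pow_of_unique_prime_dvd hne fun {d} hd hdvd => ?_⟩
    by_contra hdt
    have hdH : d ∣ Nat.card H := hdvd.trans (Subgroup.card_dvd_of_le inf_le_left)
    have hle : M ≤ (pPrimeCore d H).map H.subtype := by
      refine inf_le_right.trans (iInf_le _ (⟨d, hd, hdt, hdH⟩ : ι))
    have h1 : d ∣ Nat.card ((pPrimeCore d H).map H.subtype) := hdvd.trans (Subgroup.card_dvd_of_le hle)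
    rw [Subgroup.card_map_of_injective H.subtype_injective] at h1
    haveI : Fact d.Prime := ⟨hd⟩
    have h2 : (Nat.card (pPrimeCore d H)).Coprime d := pPrimeCore_coprime
    exact hd.one_lt.ne' (Nat.eq_one_of_dvd_coprimes h2.symm dvd_rfl h1)

/-- Hyperplanes are lines. -/
theorem isLine_of_relIndex {B : Subgroup G} (hB : B ≤ A) (hBi : B.relIndex A = p) : IsLine p A B := by
  refine ⟨hB, ?_⟩
  have h1 := card_eq_card_mul_relIndex hB
  rw [hBi, h.card_A] at h1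
  have hp0 := hp.out.pos
  have : p ^ 3 = p ^ 2 * p := by ring
  rw [this] at h1
  exact (Nat.eq_of_mul_eq_mul_right hp0 h1).symm

/-- **(D)**: `D_L(t) ∩ H ≤ O_t(H)` for every `H` in the family. -/
theorem DL_inf_le_core {t : ℕ} [ht : Fact t.Prime] {L H : Subgroup G} (hL : IsLine p A L)
    (hH : H ∈ signalizerFamily p A θ) : DL θ t L ⊓ H ≤ pCoreOf t H := by
  have hne : ∃ z ∈ L, z ≠ 1 := by
    obtain ⟨z, hz, -, hz1⟩ := exists_meet h.ea h.card_A hL hL
    exact ⟨z, hz, hz1⟩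
  refine h.le_core_of_hyperplanes hH inf_le_right ((h.DL_isPGroup hne).to_le inf_le_left) ?_
  intro B hB hBi
  obtain ⟨z, hzL, hzB, hz1⟩ := exists_meet h.ea h.card_A hL (h.isLine_of_relIndex hB hBi)
  refine (isPGroup_pCoreOf (p := t) (θ z)).to_le ?_
  rw [Subgroup.commutator_le]
  rintro u ⟨hu, -⟩ v ⟨hv1, hv2⟩
  have hu' : u ∈ pCoreOf t (θ z) := mem_DL.mp hu z hzL hz1
  have hvz : v ∈ θ z := hH.2.2.2 z (hL.1 hzL) hz1 ⟨hv1, mem_centralizer_iff.mpr fun w hw => by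
    rw [Set.mem_singleton_iff.mp hw]
    exact mem_centralizer_iff.mp hv2 z hzB⟩
  have := conj_mem_core_of_mem (t := t) hvz u⁻¹ (inv_mem hu')
  rw [commutatorElement_def]
  have e : u * v * u⁻¹ * v⁻¹ = u * (v * u⁻¹ * v⁻¹) := by group
  rw [e]
  exact (pCoreOf t (θ z)).mul_mem hu' this

/-- Different primes: `D_L(t)` and `D_L'(s)` commute. -/
theorem DL_commute {t s : ℕ} [ht : Fact t.Prime] [hs : Fact s.Prime] (hts : t ≠ s) {L L' : Subgroup G}
    (hL : IsLine p A L) (hL' : IsLine p A L') {x y : G} (hx : x ∈ DL θ t L) (hy : y ∈ DL θ s L') :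
    x * y = y * x := by
  obtain ⟨z, hz, hz', hz1⟩ := exists_meet h.ea h.card_A hL hL'
  exact commute_cores hts (mem_DL.mp hx z hz hz1) (mem_DL.mp hy z hz' hz1)

/-- If all `θ a` are `t`-groups, then the conclusion holds; so in the minimal counterexample there is
another prime. -/
theorem proper_singleton (t : ℕ) [ht : Fact t.Prime] : Proper A θ {t} := by
  by_contra hcon
  have hall : ∀ a ∈ A, a ≠ 1 → IsPGroup t (θ a) := by
    intro a ha ha1
    rw [IsPGroup.iff_card]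
    refine ⟨_, Nat.eq_prime_pow_of_unique_prime_dvd Nat.card_pos.ne' fun {d} hd hdvd => ?_⟩
    by_contra hdt
    exact hcon ⟨a, ha, ha1, d, hd, hdvd, hdt⟩
  obtain ⟨-, X, hXA, hXp, hXθ⟩ := Cfsg.Agent.S1285.result p A h.ea h.h3 θ h.functor t hall
  have hXt : ∀ q : ℕ, q.Prime → q ∣ Nat.card X → q = t := by
    intro q hq hd
    haveI : Fact q.Prime := ⟨hq⟩
    have hZs : Group.IsSolvable A := by
      have := isPGroup_of_isElementaryAbelian h.ea
      exact isSolvable_of_isPGroup this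
    obtain ⟨S, hS, hSA⟩ := exists_invariant_sylowIn (p := q) (le_normalizer_of_inv hXA)
      (coprime_card h.ea hXp) (Or.inl hZs)
    have hSne : S ≠ ⊥ := by
      rintro rfl
      apply hS.2.2
      rw [Subgroup.relIndex_bot_left]
      exact hd
    have hSp : ¬ p ∣ Nat.card S := fun hh => hXp (hh.trans (Subgroup.card_dvd_of_le hS.1))
    have hgen := iSup_inf_centralizer h.ea h.h2 hSp (le_normalizer_iff.mp hSA)
    have : ∃ a ∈ A, a ≠ 1 ∧ S ⊓ centralizer {a} ≠ ⊥ := by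
      by_contra hcon'
      push Not at hcon'
      apply hSne
      rw [← hgen]
      exact iSup₂_eq_bot.mpr fun a ha => hcon' a ha.1 ha.2
    obtain ⟨a, ha, ha1, hne⟩ := this
    have hpg : IsPGroup q (S ⊓ centralizer {a} : Subgroup G) := hS.2.1.to_le inf_le_left
    obtain ⟨n, hn⟩ := IsPGroup.iff_card.mp hpg
    have hn0 : n ≠ 0 := by
      rintro rfl
      rw [pow_zero] at hn
      exact hne (Subgroup.eq_bot_of_card_eq _ hn)
    have hqd : q ∣ Nat.card (S ⊓ centralizer {a} : Subgroup G) := by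
      rw [hn]
      exact dvd_pow_self q hn0
    have hle : S ⊓ centralizer {a} ≤ θ a := by
      rw [← hXθ a ha ha1]
      exact inf_le_inf_right _ hS.1
    have hqa : q ∣ Nat.card (θ a) := hqd.trans (Subgroup.card_dvd_of_le hle)
    obtain ⟨m, hm⟩ := IsPGroup.iff_card.mp (hall a ha ha1)
    rw [hm] at hqa
    exact (Nat.prime_dvd_prime_iff_eq hq ht.out).mp (hq.dvd_of_dvd_pow hqa)
  have hXpg : IsPGroup t X := by
    rw [IsPGroup.iff_card]
    exact ⟨_, Nat.eq_prime_pow_of_unique_prime_dvd Nat.card_pos.ne' fun {d} hd hdvd => hXt d hd hdvd⟩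
  have hle : signalizerClosure A θ ≤ X := iSup_le fun a => by
    rw [← hXθ a.1 a.2.1 a.2.2]
    exact inf_le_left
  apply h.not_concl
  refine ⟨?_, fun hh => hXp (hh.trans (Subgroup.card_dvd_of_le hle)), fun b hb => closure_inv h.functor.1 b hb, ?_⟩
  · exact isSolvable_of_isPGroup (hXpg.to_le hle)
  · intro a ha ha1
    rw [← hXθ a ha ha1]
    exact inf_le_inf_right _ hle

/-- `R_t`: the largest `C`-invariant `t`-subgroup of the family. -/
theorem Rt_mem (t : ℕ) [ht : Fact t.Prime] : Rho A θ {t} ∈ signalizerFamily p A θ :=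
  h.Rho_mem _ (h.proper_singleton t)

theorem Rt_isPGroup (t : ℕ) [ht : Fact t.Prime] : IsPGroup t (Rho A θ {t}) := by
  rw [IsPGroup.iff_card]
  exact ⟨_, Nat.eq_prime_pow_of_unique_prime_dvd Nat.card_pos.ne' fun {d} hd hdvd =>
    h.Rho_pi _ (h.proper_singleton t) d hd hdvd⟩

theorem piGroup_singleton {t : ℕ} [ht : Fact t.Prime] {U : Subgroup G} (hU : IsPGroup t U) :
    PiGroup {t} U := by
  intro q hq hd
  obtain ⟨n, hn⟩ := IsPGroup.iff_card.mp hU
  rw [hn] at hd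
  exact (Nat.prime_dvd_prime_iff_eq hq ht.out).mp (hq.dvd_of_dvd_pow hd)

/-- `C`-invariant `t`-subgroups of the family lie in `R_t`. -/
theorem le_Rt {t : ℕ} [ht : Fact t.Prime] {U : Subgroup G} (hU : U ∈ signalizerFamily p A θ)
    (hUt : IsPGroup t U) (hUC : CC A θ ≤ normalizer (U : Set G)) : U ≤ Rho A θ {t} :=
  h.le_Rho hU (h.piGroup_singleton hUt) hUC

/-- `O_t(H) ≤ R_t` when `C ≤ H`. -/
theorem core_le_Rt {t : ℕ} [ht : Fact t.Prime] {H : Subgroup G} (hH : H ∈ signalizerFamily p A θ)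
    (hCH : CC A θ ≤ H) : pCoreOf t H ≤ Rho A θ {t} :=
  h.le_Rt (core_mem_family hH) (isPGroup_pCoreOf H) (hCH.trans (le_normalizer_pCoreOf H))

theorem Rt_le_maxT {t : ℕ} [ht : Fact t.Prime] {T : Subgroup G} (hT : IsMaxT p A θ t T) :
    Rho A θ {t} ≤ T :=
  h.le_maxT_of_CC_inv (h.Rt_mem t) (h.Rt_isPGroup t) (fun _ hc => h.CC_normalizes_Rho _ hc) hT

theorem line_ne_one {L : Subgroup G} (hL : IsLine p A L) : ∃ z ∈ L, z ≠ 1 := by
  obtain ⟨z, hz, -, hz1⟩ := exists_meet h.ea h.card_A hL hL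
  exact ⟨z, hz, hz1⟩

/-- `D_L(t) ≤ R_t`. -/
theorem DL_le_Rt {t : ℕ} [ht : Fact t.Prime] {L : Subgroup G} (hL : IsLine p A L) :
    DL θ t L ≤ Rho A θ {t} := by
  refine h.le_Rt (h.DL_family hL.1 (h.line_ne_one hL)) (h.DL_isPGroup (h.line_ne_one hL)) ?_
  intro c hc
  refine Cfsg.Agent.Lib.LocalStruct.Comm.mem_normalizer_of_conj_mem ?_
  exact h.DL_normalized_of_forall fun z hz hz1 => CC_le_theta (hL.1 hz) hz1 hc

theorem Gam_le_Rt {t : ℕ} [ht : Fact t.Prime] : Gam p A θ t ≤ Rho A θ {t} :=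
  iSup_le fun L => h.DL_le_Rt L.2

theorem Gam_isPGroup {t : ℕ} [ht : Fact t.Prime] : IsPGroup t (Gam p A θ t) :=
  (h.Rt_isPGroup t).to_le h.Gam_le_Rt

theorem Gam_inv {t : ℕ} [ht : Fact t.Prime] {b : G} (hb : b ∈ A) :
    ∀ x ∈ Gam p A θ t, b * x * b⁻¹ ∈ Gam p A θ t := by
  intro x hx
  have hle : Gam p A θ t ≤ (Gam p A θ t).comap (MulAut.conj b).toMonoidHom := by
    refine iSup_le fun L => ?_
    intro y hy
    exact DL_le_Gam L.2 ((h.DL_family L.2.1 (h.line_ne_one L.2)).2.2.1 b hb y hy)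
  exact hle hx

theorem Gam_mem {t : ℕ} [ht : Fact t.Prime] : Gam p A θ t ∈ signalizerFamily p A θ :=
  family_of_le (h.Rt_mem t) h.Gam_le_Rt fun _ hb => h.Gam_inv hb

theorem Gam_CC_inv {t : ℕ} [ht : Fact t.Prime] {c : G} (hc : c ∈ CC A θ) :
    ∀ x ∈ Gam p A θ t, c * x * c⁻¹ ∈ Gam p A θ t := by
  intro x hx
  have hle : Gam p A θ t ≤ (Gam p A θ t).comap (MulAut.conj c).toMonoidHom := by
    refine iSup_le fun L => ?_
    intro y hy
    exact DL_le_Gam L.2 (h.DL_normalized_of_forall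
      (fun z hz hz1 => CC_le_theta (L.2.1 hz) hz1 hc) y hy)
  exact hle hx

/-- Different primes: `Γ_t` and `Γ_s` commute. -/
theorem Gam_commute {t s : ℕ} [ht : Fact t.Prime] [hs : Fact s.Prime] (hts : t ≠ s) {x y : G}
    (hx : x ∈ Gam p A θ t) (hy : y ∈ Gam p A θ s) : x * y = y * x := by
  have h1 : Gam p A θ t ≤ centralizer (Gam p A θ s : Set G) := by
    refine iSup_le fun L => ?_
    intro u hu
    have h2 : Gam p A θ s ≤ centralizer ({u} : Set G) := by
      refine iSup_le fun L' => ?_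
      intro v hv
      refine mem_centralizer_iff.mpr fun w hw => ?_
      rw [Set.mem_singleton_iff.mp hw]
      exact h.DL_commute hts L.2 L'.2 hu hv
    refine mem_centralizer_iff.mpr fun v hv => ?_
    exact (mem_centralizer_iff.mp (h2 hv) u rfl).symm
  exact (mem_centralizer_iff.mp (h1 hx) y hy).symm

end IsMinCx

end Cfsg.Agent.Lib.SSFT
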